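import Mathlib

/-!
# Zero is a non-trivial sum of four squares over `ℚ(√5, ζ_p)`
-/

set_option autoImplicit false

namespace CfsgLib.FrobCompl

open Polynomial

theorem gauss_identity_aux {l : ℕ} [hl : Fact l.Prime] (h3 : l % 4 = 3) (K : Type*) [Field K]
    [CharZero K] [Algebra ℚ K] [IsCyclotomicExtension {l} ℚ K] :
    ∃ A B : ℚ[X], (X - 1) * (A ^ 2 + (l : ℚ[X]) * B ^ 2) = 4 * (X ^ l - 1) := by
  classical
  have : IsGalois ℚ K := IsCyclotomicExtension.isGalois {l} ℚ K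
  have : FiniteDimensional ℚ K := IsCyclotomicExtension.finiteDimensional {l} ℚ K
  have hω := IsCyclotomicExtension.zeta_spec l ℚ K
  set w := IsCyclotomicExtension.zeta l ℚ K
  let ψ : AddChar (ZMod l) K := AddChar.zmodChar l hω.pow_eq_one
  have hψ : ψ.IsPrimitive := AddChar.zmodChar_primitive_of_primitive_root l hω
  have hch : ringChar (ZMod l) ≠ 2 := by rw [ZMod.ringChar_zmod_n]; omega
  let χ := quadraticChar (ZMod l)
  let χ' : MulChar (ZMod l) K := χ.ringHomComp (Int.castRingHom K)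
  have hg : gaussSum χ' ψ ^ 2 = -l := by
    rw [gaussSum_sq ((MulChar.ringHomComp_ne_one_iff Int.cast_injective).2
      (quadraticChar_ne_one hch)) ((quadraticChar_isQuadratic _).comp _) hψ, ZMod.card]
    have : χ (-1) = -1 := by
      rw [quadraticChar_neg_one hch, ZMod.card, ZMod.χ₄_nat_three_mod_four h3]
    have h4 : χ' (-1) = (χ (-1) : K) := rfl
    rw [h4, this]; simp
  set g := gaussSum χ' ψ with hgdef
  let P : ℤ → K[X] := fun e => ∏ a ∈ Finset.univ.filter (fun a => χ a = e), (X - C (ψ a))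
  have hσ : ∀ σ : Gal(K/ℚ), ∃ ε : ℤ, (ε = 1 ∨ ε = -1) ∧
      (∀ e, (P e).map (σ : K →+* K) = P (ε * e)) ∧ σ g = ε * g := by
    intro σ
    have h1 : IsPrimitiveRoot (σ w) l := hω.map_of_injective σ.injective
    obtain ⟨b, -, hb⟩ := hω.eq_pow_of_pow_eq_one h1.pow_eq_one
    have h2 : ∀ a, σ (ψ a) = ψ (b * a) := fun a => by
      rw [AddChar.zmodChar_apply, map_pow, ← hb, ← pow_mul, ← AddChar.zmodChar_apply' hω.pow_eq_one,
        Nat.cast_mul, ZMod.natCast_zmod_val]
    have hb0 : (b : ZMod l) ≠ 0 := fun e => by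
      have h4 := h2 1
      rw [e, zero_mul, AddChar.map_zero_eq_one, map_eq_one_iff _ σ.injective] at h4
      exact one_ne_zero ((hψ.zmod_char_eq_one_iff l 1).1 h4)
    have hε := quadraticChar_dichotomy hb0
    have hεε : χ b * χ b = 1 := by rcases hε with e | e <;> rw [e] <;> rfl
    refine ⟨χ b, hε, fun e => ?_, ?_⟩
    · simp only [P, Polynomial.map_prod, Polynomial.map_sub, map_X, map_C, RingHom.coe_coe, h2]
      refine Finset.prod_equiv (Equiv.mulLeft₀ _ hb0) (fun a => ?_) fun a _ => rfl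
      simp only [Finset.mem_filter, Finset.mem_univ, true_and, Equiv.mulLeft₀_apply, map_mul]
      refine ⟨fun h => by rw [h], fun h => ?_⟩
      rw [← one_mul (χ a), ← hεε, mul_assoc, h, ← mul_assoc, hεε, one_mul]
    · have h4 := gaussSum_mulShift χ' ψ (Units.mk0 _ hb0)
      have h5 : σ g = gaussSum χ' (ψ.mulShift (b : ZMod l)) := by
        simp only [hgdef, gaussSum, map_sum, map_mul, h2, AddChar.mulShift_apply, χ',
          MulChar.ringHomComp_apply, eq_intCast, map_intCast]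
      have h6 : χ' (b : ZMod l) = (χ b : K) := rfl
      rw [Units.val_mk0, ← h5, h6, ← hgdef] at h4
      conv_rhs => rw [← h4, ← mul_assoc, ← Int.cast_mul, hεε, Int.cast_one, one_mul]
  have lift : ∀ Q : K[X], (∀ σ : Gal(K/ℚ), Q.map (σ : K →+* K) = Q) →
      ∃ A : ℚ[X], A.map (algebraMap ℚ K) = Q := by
    intro Q hQ
    rw [← mem_lifts, lifts_iff_coeff_lifts]
    intro n
    rw [IsGalois.mem_range_algebraMap_iff_fixed]
    intro σ
    simpa using congrArg (fun q => coeff q n) (hQ σ)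
  obtain ⟨A, hA⟩ := lift (P 1 + P (-1)) fun σ => by
    obtain ⟨ε, rfl | rfl, h1, -⟩ := hσ σ <;> simp [Polynomial.map_add, h1, add_comm]
  obtain ⟨B, hB⟩ := lift (C (g / l) * (P 1 - P (-1))) fun σ => by
    obtain ⟨ε, rfl | rfl, h1, h2⟩ := hσ σ
    · simp [Polynomial.map_mul, Polynomial.map_sub, h1, h2]
    · simp only [Polynomial.map_mul, Polynomial.map_sub, h1, map_C, RingHom.coe_coe, map_div₀, h2,
        map_natCast]
      simp only [Int.cast_neg, Int.cast_one, neg_mul, one_mul, neg_div, C_neg, mul_one, neg_neg]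
      ring
  have hprod : (X - 1) * (P 1 * P (-1)) = X ^ l - 1 := by
    have h1 : (X ^ l - 1 : K[X]) = ∏ a : ZMod l, (X - C (ψ a)) := by
      have h2 := X_pow_sub_C_eq_prod hω (α := 1) (a := 1) hl.out.pos (one_pow l)
      rw [C_1] at h2
      rw [h2]
      refine Finset.prod_bij (fun i _ => (i : ZMod l)) (fun _ _ => Finset.mem_univ _)
        (fun i hi j hj e => ?_) (fun a _ => ⟨a.val, Finset.mem_range.2 a.val_lt,
          ZMod.natCast_zmod_val a⟩) fun i _ => ?_
      · have := congrArg ZMod.val e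
        rwa [ZMod.val_cast_of_lt (Finset.mem_range.1 hi),
          ZMod.val_cast_of_lt (Finset.mem_range.1 hj)] at this
      · rw [mul_one, AddChar.zmodChar_apply']
    have h2 : P 0 = X - 1 := by
      simp only [P, χ, quadraticChar_eq_zero_iff, Finset.filter_eq', Finset.mem_univ, if_true,
        Finset.prod_singleton, AddChar.map_zero_eq_one, C_1]
    rw [h1, ← h2, ← Finset.prod_fiberwise_of_maps_to (t := {0, 1, -1}) (g := χ) fun a _ => by
      simpa only [Finset.mem_insert, Finset.mem_singleton] using quadraticChar_isQuadratic _ a,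
      Finset.prod_insert (by decide), Finset.prod_pair (by decide)]
  refine ⟨A, B, Polynomial.map_injective (algebraMap ℚ K) (algebraMap ℚ K).injective ?_⟩
  simp only [Polynomial.map_mul, Polynomial.map_sub, Polynomial.map_add, Polynomial.map_pow, map_X,
    Polynomial.map_one, Polynomial.map_natCast, Polynomial.map_ofNat, hA, hB]
  have hl0 : (l : K) ≠ 0 := Nat.cast_ne_zero.2 hl.out.ne_zero
  have h4 : (l : K[X]) * C (g / l) ^ 2 = -1 := by
    rw [← C_eq_natCast, ← C_pow, ← C_mul, div_pow, hg, ← C_1, ← C_neg]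
    congr 1
    field_simp
  linear_combination 4 * hprod + (X - 1) * (P 1 - P (-1)) ^ 2 * h4

/-- Gauss' identity `4 Φ_l = A² + l B²` for a prime `l ≡ 3 (mod 4)`. -/
theorem gauss_identity {l : ℕ} [hl : Fact l.Prime] (h3 : l % 4 = 3) :
    ∃ A B : ℚ[X], (X - 1) * (A ^ 2 + (l : ℚ[X]) * B ^ 2) = 4 * (X ^ l - 1) :=
  @gauss_identity_aux l hl h3 (CyclotomicField l ℚ) _ _ _
    (CyclotomicField.isCyclotomicExtension l ℚ)

theorem exists_two_squares {R : Type*} [CommRing R] [Algebra ℚ R] {s : R} (hs : s ^ 2 = 5)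
    (m : ℕ) (hm : 0 < m) (r : ℤ) (hr : (m : ℤ) ∣ r ^ 2 + 5) : ∃ a b : R, (m : R) = a ^ 2 + b ^ 2 := by
  induction m using Nat.strong_induction_on generalizing r with
  | _ m ih =>
    by_cases h2 : m ≤ 2
    · interval_cases m
      · exact ⟨1, 0, by simp⟩
      · exact ⟨1, 1, by norm_num⟩
    have h1 := Int.bmod_le (x := r) hm
    have h3 := Int.le_bmod (x := r) hm
    have h4 : (m : ℤ) ∣ (r.bmod m) ^ 2 + 5 := by
      obtain ⟨k, hk⟩ := Int.dvd_self_sub_bmod (x := r) (m := m)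
      have : r.bmod m = r - m * k := by linarith
      rw [this, show (r - m * k) ^ 2 + 5 = r ^ 2 + 5 + m * (m * k ^ 2 - 2 * r * k) by ring]
      exact dvd_add hr (dvd_mul_right _ _)
    generalize r.bmod m = t at h1 h3 h4
    obtain ⟨k, hk⟩ := h4
    have hk0 : 0 < k := by nlinarith [sq_nonneg t]
    have hkm : k < m := by
      have h5 : 2 * t ≤ m := by omega
      have h6 : -(m : ℤ) ≤ 2 * t := by omega
      have h7 : (3 : ℤ) ≤ m := by omega
      nlinarith
    obtain ⟨k, rfl⟩ := Int.eq_ofNat_of_zero_le hk0.le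
    obtain ⟨a, b, hab⟩ := ih k (by omega) (by omega) t ⟨m, by rw [hk, mul_comm]⟩
    have h5 : ((t : R)) ^ 2 + 5 = m * k := by exact_mod_cast congrArg (Int.cast : ℤ → R) hk
    have h6 : (k : R) * algebraMap ℚ R (k : ℚ)⁻¹ = 1 := by
      rw [← map_natCast (algebraMap ℚ R), ← map_mul, mul_inv_cancel₀ (by
        exact_mod_cast hk0.ne'), map_one]
    generalize algebraMap ℚ R (k : ℚ)⁻¹ = u at h6
    refine ⟨(t * a - s * b) * u, (t * b + s * a) * u, ?_⟩
    linear_combination (-(a ^ 2 + b ^ 2) * u ^ 2) * hs - (a ^ 2 + b ^ 2) * u ^ 2 * h5 +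
      m * k * u ^ 2 * hab - m * (k * u + 1) * h6

theorem exists_four_squares {R : Type*} [CommRing R] [Algebra ℚ R] {p : ℕ} (hp : p.Prime)
    (h20 : Nat.Coprime 20 p) {ζ s : R} (hζ : ζ ^ p = 1) (hu : ∀ x, (ζ - 1) * x = 0 → x = 0)
    (hs : s ^ 2 = 5) : ∃ a b c : R, 2 ^ 2 + a ^ 2 + b ^ 2 + c ^ 2 = 0 := by
  obtain ⟨a, ha1, ha2⟩ := Nat.chineseRemainder h20 3 (p - 1)
  obtain ⟨l, -, hl, hla⟩ := Nat.forall_exists_prime_gt_and_modEq 0 (q := 20 * p) (a := a)
    (mul_ne_zero (by norm_num) hp.ne_zero) (Nat.Coprime.mul_right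
      (by rw [Nat.Coprime, ha1.gcd_eq]; norm_num)
      (by rw [Nat.Coprime, ha2.gcd_eq]; exact (Nat.coprime_self_sub_left hp.one_le).2 (by simp)))
  have h1 : l % 20 = 3 := (hla.of_mul_right p).trans ha1
  have h2 : l ≡ p - 1 [MOD p] := (hla.of_mul_left 20).trans ha2
  have := Fact.mk hl
  have := Fact.mk Nat.prime_five
  have h3 : legendreSym l (-5) = 1 := by
    have h4 := legendreSym.quadratic_reciprocity_one_mod_four (p := 5) (q := l) rfl (by omega)
    have h5 : legendreSym 5 l = -1 := by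
      rw [legendreSym.mod, show (l : ℤ) % (5 : ℕ) = 3 by omega]
      norm_num
    rw [show (-5 : ℤ) = -1 * (5 : ℕ) by rfl, legendreSym.mul, h4, h5,
      legendreSym.at_neg_one (by omega), ZMod.χ₄_nat_three_mod_four (by omega)]
    rfl
  obtain ⟨r, hr⟩ := (legendreSym.eq_one_iff l (fun e => by
    rw [(legendreSym.eq_zero_iff l _).2 e] at h3; exact zero_ne_one h3)).1 h3
  obtain ⟨r, rfl⟩ := ZMod.intCast_surjective r
  obtain ⟨u, v, huv⟩ := exists_two_squares hs l hl.pos r (by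
    rw [← ZMod.intCast_zmod_eq_zero_iff_dvd]
    push_cast at hr ⊢
    linear_combination -hr)
  obtain ⟨A, B, hAB⟩ := gauss_identity (l := l) (by omega)
  have h4 := congrArg (aeval ζ) hAB
  simp only [map_mul, map_sub, map_add, map_pow, aeval_X, map_one, map_natCast, map_ofNat] at h4
  have h5 : ζ ^ l * ζ = 1 := by
    rw [pow_eq_pow_mod l hζ, h2, ← pow_eq_pow_mod _ hζ, ← pow_succ, Nat.sub_add_cancel hp.one_le, hζ]
  obtain ⟨k, hk⟩ := hp.odd_of_ne_two (by rintro rfl; norm_num at h20)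
  have h6 : (ζ ^ (k + 1)) ^ 2 = ζ := by
    rw [← pow_mul, show (k + 1) * 2 = p + 1 by omega, pow_succ, hζ, one_mul]
  refine ⟨ζ ^ (k + 1) * aeval ζ A, ζ ^ (k + 1) * u * aeval ζ B, ζ ^ (k + 1) * v * aeval ζ B,
    hu _ ?_⟩
  linear_combination ζ * h4 + 4 * h5 + (ζ - 1) * ((aeval ζ A) ^ 2 + (u ^ 2 + v ^ 2) *
    (aeval ζ B) ^ 2) * h6 - (ζ - 1) * ζ * (aeval ζ B) ^ 2 * huv

end CfsgLib.FrobCompl
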