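import Mathlib
import Cfsg.Agent.Lib.FrobCompl.Basic
import Cfsg.Agent.Lib.Frob.Kernel

/-! Quaternion groups acting fixed-point-freely: the kernel has odd square order. -/

set_option autoImplicit false
open Cfsg Subgroup

namespace CfsgLib.FrobCompl

theorem exists_sq_add_sq_add_one {n : ℕ} (hn : Odd n) :
    ∃ a b : ℤ, (n : ℤ) ∣ a ^ 2 + b ^ 2 + 1 := by
  have hn0 : n ≠ 0 := by rintro rfl; simp at hn
  obtain ⟨k, hk⟩ := hn
  -- the class `2 n - 1 = 4 k + 1` modulo `4 n`
  have hcop : IsCoprime ((2 * n - 1 : ℤ)) ((4 * n : ℕ) : ℤ) := by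
    refine ⟨-(2 * n + 1), n, ?_⟩
    push_cast
    ring
  obtain ⟨l, -, hl, hlm⟩ := Nat.forall_exists_prime_gt_and_zmodEq 0 (q := 4 * n) (by omega) hcop
  have := Fact.mk hl
  obtain ⟨c, hc⟩ := hlm.symm.dvd
  have h4 : l % 4 ≠ 3 := by
    have : (l : ℤ) = 4 * (k + n * c) + 1 := by
      push_cast at hc
      have hk' : (n : ℤ) = 2 * k + 1 := by exact_mod_cast hk
      linear_combination hc + 2 * hk'
    omega
  obtain ⟨a, b, hab⟩ := Nat.Prime.sq_add_sq h4
  refine ⟨a, b, 4 * c + 2, ?_⟩
  have : (a : ℤ) ^ 2 + b ^ 2 = l := by exact_mod_cast hab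
  push_cast at hc
  linear_combination this + hc

theorem isSquare_card_of_quat {V : Type*} [AddCommGroup V] [Finite V] (hodd : Odd (Nat.card V))
    (I J : V →+ V) (hI : ∀ v, I (I v) = -v) (hJ : ∀ v, J (J v) = -v)
    (hIJ : ∀ v, J (I v) = -I (J v)) : IsSquare (Nat.card V) := by
  obtain ⟨a, b, c, hc⟩ := exists_sq_add_sq_add_one hodd
  have hn : ∀ v : V, (a ^ 2 + b ^ 2 + 1) • v = 0 := fun v => by
    rw [hc, mul_comm, mul_smul, natCast_zsmul, card_nsmul_eq_zero', smul_zero]
  let u : V →+ V := a • I + b • J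
  have hu : ∀ v, u v = a • I v + b • J v := fun v => rfl
  have huu : ∀ v, u (u v) = v := fun v => by
    simp only [hu, map_add, map_zsmul, hI, hJ, hIJ]
    linear_combination (norm := module) (-1 : ℤ) • hn v
  have huk : ∀ v, u (I (J v)) = -I (J (u v)) := fun v => by
    simp only [hu, map_add, map_zsmul, map_neg, hI, hJ, hIJ]
    module
  have h2 : Function.Bijective (fun v : V => 2 • v) :=
    (nsmulCoprime (n := 2) (G := V) (Nat.coprime_two_right.mpr hodd)).bijective
  let P := (u - AddMonoidHom.id V).ker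
  let M := (u + AddMonoidHom.id V).ker
  have hP : ∀ v, v ∈ P ↔ u v = v := fun v => by
    simp [P, AddMonoidHom.mem_ker, sub_eq_zero]
  have hM : ∀ v, v ∈ M ↔ u v = -v := fun v => by
    simp [M, AddMonoidHom.mem_ker, add_eq_zero_iff_eq_neg]
  have hr : (u - AddMonoidHom.id V).range = M := by
    ext v
    rw [hM]
    constructor
    · rintro ⟨w, rfl⟩
      simp [huu]
    · intro hv
      obtain ⟨w, hw⟩ := h2.2 (-v)
      refine ⟨w, h2.1 ?_⟩
      simp only at hw ⊢
      rw [← map_nsmul, hw]
      simp [hv, two_smul]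
  have hk : Function.Injective (fun v => I (J v)) := by
    intro v w h
    have := congrArg (fun x => I (J x)) h
    simpa [hIJ, hI, hJ] using this
  have hle1 : Nat.card P ≤ Nat.card M := by
    refine Nat.card_le_card_of_injective
      (fun v : P => (⟨I (J v), (hM _).2 (by rw [huk, (hP _).1 v.2])⟩ : M)) ?_
    intro v w h
    exact Subtype.ext (hk (congrArg Subtype.val h))
  have hle2 : Nat.card M ≤ Nat.card P := by
    refine Nat.card_le_card_of_injective
      (fun v : M => (⟨I (J v), (hP _).2 (by rw [huk, (hM _).1 v.2]; simp)⟩ : P)) ?_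
    intro v w h
    exact Subtype.ext (hk (congrArg Subtype.val h))
  refine ⟨Nat.card P, ?_⟩
  have e := AddSubgroup.card_mul_index P
  rw [AddSubgroup.index_ker, hr, ← le_antisymm hle1 hle2] at e
  exact e.symm

open scoped IsMulCommutative in
theorem odd_isSquare_card_of_fpf {L : Type*} [Group L] [Finite L] (N : Subgroup L) [N.Normal]
    {i j : L} (h1 : j * i = i * i * (i * j)) (h2 : j * j = i * i) (h3 : i * i * (i * i) = 1)
    (hfpf : N ⊓ centralizer {i * i} = ⊥) : Odd (Nat.card N) ∧ IsSquare (Nat.card N) := by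
  have hinv : ∀ k ∈ N, i * i * k * (i * i)⁻¹ = k⁻¹ := fun k hk =>
    CfsgLib.Frob.conj_eq_inv_of_fpf (by rw [normalizer_eq_top]; trivial) hfpf
      (by rw [h3]; exact one_mem _) hk
  have := CfsgLib.Frob.isMulCommutative_of_conj_eq_inv hinv
  have hodd : Odd (Nat.card N) := by
    rw [← Nat.not_even_iff_odd, even_iff_two_dvd]
    intro hd
    have := Fact.mk Nat.prime_two
    obtain ⟨x, hx⟩ := exists_prime_orderOf_dvd_card' (G := N) 2 hd
    have hx2 : (x : L)⁻¹ = x := by
      have : x ^ 2 = 1 := by rw [← hx, pow_orderOf_eq_one]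
      rw [inv_eq_iff_mul_eq_one, ← coe_mul, ← pow_two, this, coe_one]
    have : (x : L) ∈ N ⊓ centralizer {i * i} := by
      refine ⟨x.2, mem_centralizer_singleton_iff.mpr ?_⟩
      have := hinv x x.2
      rw [hx2] at this
      exact (mul_inv_eq_iff_eq_mul.mp this).symm
    rw [hfpf, mem_bot] at this
    rw [show x = 1 from Subtype.ext this, orderOf_one] at hx
    omega
  refine ⟨hodd, ?_⟩
  refine isSquare_card_of_quat (V := Additive N) hodd
    (MonoidHom.toAdditive (MulAut.conjNormal i : N ≃* N).toMonoidHom)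
    (MonoidHom.toAdditive (MulAut.conjNormal j : N ≃* N).toMonoidHom) ?_ ?_ ?_
  · intro v
    refine Subtype.ext ?_
    change i * (i * (v.toMul : N) * i⁻¹) * i⁻¹ = ((v.toMul : N) : L)⁻¹
    rw [← hinv _ v.toMul.2]
    group
  · intro v
    refine Subtype.ext ?_
    change j * (j * (v.toMul : N) * j⁻¹) * j⁻¹ = ((v.toMul : N) : L)⁻¹
    rw [← hinv _ v.toMul.2, ← h2]
    group
  · intro v
    refine Subtype.ext ?_
    change j * (i * (v.toMul : N) * i⁻¹) * j⁻¹ = (i * (j * (v.toMul : N) * j⁻¹) * i⁻¹)⁻¹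
    rw [← hinv _ (‹N.Normal›.conj_mem _ (‹N.Normal›.conj_mem _ v.toMul.2 j) i)]
    calc j * (i * (v.toMul : N) * i⁻¹) * j⁻¹ = (j * i) * (v.toMul : N) * (j * i)⁻¹ := by group
      _ = _ := by rw [h1]; group

theorem odd_isSquare_of_quaternion {L : Type*} [Group L] [Finite L] {H : Subgroup L}
    (hF : IsFrobeniusComplement H) {m : ℕ} (hm : 0 < m) (f : QuaternionGroup (2 * m) →* H)
    (hf : Function.Injective f) :
    Odd (Nat.card (frobeniusKernel H)) ∧ IsSquare (Nat.card (frobeniusKernel H)) := by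
  obtain ⟨N, hN, hNn, -, -, hfpf⟩ := CfsgLib.Frob.exists_kernel_fpf hF
  rw [← hN]
  have e : ((2 * (2 * m) : ℕ) : ZMod (2 * (2 * m))) = 0 := ZMod.natCast_self _
  push_cast at e
  refine odd_isSquare_card_of_fpf N (i := f (QuaternionGroup.a m)) (j := f (QuaternionGroup.xa 0))
    ?_ ?_ ?_ (hfpf _ (mul_mem (f _).2 (f _).2) ?_)
  · simp only [← coe_mul, ← map_mul, QuaternionGroup.xa_mul_a, QuaternionGroup.a_mul_a,
      QuaternionGroup.a_mul_xa]
    congr 3
    linear_combination e
  · simp only [← coe_mul, ← map_mul, QuaternionGroup.xa_mul_xa, QuaternionGroup.a_mul_a]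
    congr 3
    push_cast
    ring
  · simp only [← coe_mul, ← map_mul, QuaternionGroup.a_mul_a]
    rw [show (m : ZMod (2 * (2 * m))) + m + (m + m) = 0 by linear_combination e,
      QuaternionGroup.a_zero, map_one, coe_one]
  · simp only [← coe_mul, ← map_mul, QuaternionGroup.a_mul_a]
    intro h
    have h' := hf ((Subtype.ext h).trans (map_one f).symm)
    rw [← QuaternionGroup.a_zero] at h'
    have h'' : ((2 * m : ℕ) : ZMod (2 * (2 * m))) = 0 := by
      have := QuaternionGroup.a.inj h'
      push_cast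
      linear_combination this
    have := Nat.le_of_dvd (by omega) ((ZMod.natCast_eq_zero_iff _ _).mp h'')
    omega

theorem exists_quaternion_hom {R : Type*} [Ring R] (I J : R) (hI : I * I = -1) (hJ : J * J = -1)
    (hIJ : I * J = -(J * I)) :
    ∃ f : QuaternionGroup 2 →* R, f (QuaternionGroup.a 2) = -1 := by
  have h4 : I ^ 4 = 1 := by
    rw [show I ^ 4 = (I * I) * (I * I) by noncomm_ring, hI]; simp
  have hadd : ∀ i j : ZMod (2 * 2), I ^ (i + j).val = I ^ i.val * I ^ j.val := fun i j => by
    rw [ZMod.val_add, ← pow_add, ← pow_eq_pow_mod _ h4]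
  have h2 : I ^ 2 = -1 := by rw [pow_two, hI]
  have h3 : I ^ 3 = -I := by rw [pow_succ, h2]; simp
  have hcomm : ∀ i : ZMod (2 * 2), I ^ i.val * J = J * I ^ (-i).val := fun i => by
    fin_cases i
    · change I ^ 0 * J = J * I ^ 0
      simp
    · change I ^ 1 * J = J * I ^ 3
      simp [h3, hIJ]
    · change I ^ 2 * J = J * I ^ 2
      simp [h2]
    · change I ^ 3 * J = J * I ^ 1
      simp [h3, hIJ]
  refine ⟨{ toFun := fun x => match x with
              | .a i => I ^ i.val
              | .xa i => J * I ^ i.val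
            map_one' := by change I ^ 0 = 1; simp
            map_mul' := ?_ }, h2⟩
  rintro (i | i) (j | j)
  · exact hadd i j
  · change J * I ^ (j - i).val = I ^ i.val * (J * I ^ j.val)
    rw [← mul_assoc, hcomm, mul_assoc, ← hadd, neg_add_eq_sub]
  · change J * I ^ (i + j).val = J * I ^ i.val * I ^ j.val
    rw [hadd, mul_assoc]
  · change I ^ ((2 : ZMod (2 * 2)) + j - i).val = J * I ^ i.val * (J * I ^ j.val)
    rw [mul_assoc, ← mul_assoc _ J, hcomm, mul_assoc, ← mul_assoc J J, hJ, ← hadd,
      add_sub_assoc, hadd, neg_add_eq_sub]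
    congr 1

theorem isFCI_quaternion {n : ℕ} (hn : Odd n) (h1 : 1 < n) : IsFCI (QuaternionGroup 2) (n * n) := by
  obtain ⟨a, b, hab⟩ := exists_sq_add_sq_add_one hn
  have : NeZero n := ⟨by omega⟩
  have : Fact (1 < n) := ⟨h1⟩
  have e : (a : ZMod n) ^ 2 + b ^ 2 + 1 = 0 := by
    have := (ZMod.intCast_zmod_eq_zero_iff_dvd _ n).mpr hab
    exact_mod_cast this
  let V := ZMod n × ZMod n
  let I : AddMonoid.End V :=
    { toFun := fun v => (-v.2, v.1)
      map_zero' := by simp [V]
      map_add' := fun v w => by simp [V, add_comm] }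
  let J : AddMonoid.End V :=
    { toFun := fun v => (a * v.1 + b * v.2, b * v.1 - a * v.2)
      map_zero' := by simp [V]
      map_add' := fun v w => Prod.ext (by simp [V]; ring) (by simp [V]; ring) }
  obtain ⟨f, hf⟩ := exists_quaternion_hom I J
    (AddMonoidHom.ext fun v => Prod.ext rfl rfl)
    (AddMonoidHom.ext fun v => Prod.ext
      (by change (a : ZMod n) * (a * v.1 + b * v.2) + b * (b * v.1 - a * v.2) = -v.1
          linear_combination v.1 * e)
      (by change (b : ZMod n) * (a * v.1 + b * v.2) - a * (b * v.1 - a * v.2) = -v.2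
          linear_combination v.2 * e))
    (AddMonoidHom.ext fun v => Prod.ext
      (by change -((b : ZMod n) * v.1 - a * v.2) = -(a * -v.2 + b * v.1)
          ring)
      (by change (a : ZMod n) * v.1 + b * v.2 = -(b * -v.2 - a * v.1)
          ring))
  have key := isFCI_of_addSubgroup f ⊤ top_ne_bot (fun _ _ _ => trivial) (by
    intro g hg v _ hv
    have h2 : g = QuaternionGroup.a 2 ∨ g * g = QuaternionGroup.a 2 := by
      clear hv; revert g; decide
    have h3 : -v = v := by
      rcases h2 with rfl | h2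
      · rw [hf] at hv; exact hv
      · have : f (g * g) v = v := by
          rw [map_mul]
          change f g (f g v) = v
          rw [hv, hv]
        rw [h2, hf] at this
        exact this
    have hu : IsUnit (2 : ZMod n) := by
      have := (ZMod.isUnit_iff_coprime 2 n).mpr (Nat.coprime_two_left.mpr hn)
      exact_mod_cast this
    refine Prod.ext (hu.mul_right_eq_zero.mp ?_) (hu.mul_right_eq_zero.mp ?_)
    · have : -v.1 = v.1 := congrArg Prod.fst h3
      linear_combination -this
    · have : -v.2 = v.2 := congrArg Prod.snd h3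
      linear_combination -this)
  rwa [AddSubgroup.card_top, Nat.card_prod, Nat.card_zmod] at key

end CfsgLib.FrobCompl
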