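import Mathlib

/-!
# Generators and relations of finite groups with cyclic Sylow subgroups
-/

set_option autoImplicit false

namespace CfsgLib.FrobCompl

open Subgroup
open scoped Pointwise

variable {G : Type*} [Group G]

theorem conj_pow_iter {x y : G} {r : ℕ} (h : x⁻¹ * y * x = y ^ r) (k : ℕ) :
    (x ^ k)⁻¹ * y * x ^ k = y ^ r ^ k := by
  induction k with
  | zero => simp
  | succ k ih =>
    have := @conj_pow G _ (r ^ k) x⁻¹ y
    rw [inv_inv, h, ← pow_mul] at this
    rw [pow_succ' r, this, ← ih]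
    group

theorem pow_mod_of_commute {x y : G} {r k : ℕ} (h : x⁻¹ * y * x = y ^ r)
    (hc : y * x ^ k = x ^ k * y) : r ^ k % orderOf y = 1 % orderOf y := by
  refine pow_eq_pow_iff_modEq.1 ?_
  rw [← conj_pow_iter h, mul_assoc, hc, inv_mul_cancel_left, pow_one]

theorem exists_gens_of_isZGroup (G : Type*) [Group G] [Finite G] [IsZGroup G] :
    ∃ (x y : G) (r : ℕ), closure {x, y} = ⊤ ∧ x⁻¹ * y * x = y ^ r ∧ (r - 1).Coprime (orderOf y) ∧
      (orderOf x).Coprime (orderOf y) ∧ 1 ≤ r ∧ zpowers y = commutator G ∧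
      orderOf x * orderOf y = Nat.card G := by
  have hc := IsZGroup.coprime_commutator_index (G := G)
  obtain ⟨H, hH⟩ := exists_right_complement'_of_coprime hc
  have h1 : Abelianization G ≃* H := hH.symm.QuotientMulEquiv
  obtain ⟨x, rfl⟩ := (H.isCyclic_iff_exists_zpowers_eq_top).1
    (isCyclic_of_surjective _ h1.surjective)
  obtain ⟨y, hy⟩ := ((commutator G).isCyclic_iff_exists_zpowers_eq_top).1
    (IsZGroup.isCyclic_commutator G)
  have hn : ∀ g : G, ∃ k : ℕ, y ^ k = g * y * g⁻¹ := fun g => by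
    have hN : (zpowers y).Normal := hy ▸ inferInstance
    exact mem_powers_iff_mem_zpowers.2 (hN.conj_mem y (mem_zpowers y) g)
  obtain ⟨k, hk⟩ := hn x⁻¹
  have hr : x⁻¹ * y * x = y ^ (k + orderOf y) := by
    rw [pow_add, pow_orderOf_eq_one, mul_one, hk, inv_inv]
  have h2 : 1 ≤ k + orderOf y := (orderOf_pos y).trans_le (Nat.le_add_left _ _)
  have h3 := hH.symm.index_eq_card
  have h4 := hH.card_mul_card
  have h5 := hH.sup_eq_top
  have h6 : ∀ g : G, ∃ a b : ℤ, y ^ a * x ^ b = g := fun g => by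
    obtain ⟨⟨⟨u, hu⟩, _, b, rfl⟩, e⟩ := hH.2 g
    obtain ⟨a, rfl⟩ : u ∈ zpowers y := hy ▸ hu
    exact ⟨a, b, e⟩
  rw [h3] at hc
  rw [← hy, Nat.card_zpowers, Nat.card_zpowers] at hc h4
  refine ⟨x, y, k + orderOf y, ?_, hr, ?_, hc.symm, h2, hy, by rw [mul_comm, h4]⟩
  · rw [Set.pair_comm, Set.insert_eq, Subgroup.closure_union, ← zpowers_eq_closure, ← zpowers_eq_closure, hy,
      h5]
  generalize k + orderOf y = r at hr h2
  have : (zpowers (y ^ (r - 1))).Normal := ⟨by
    rintro _ ⟨i, rfl⟩ g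
    obtain ⟨k, hk⟩ := hn g
    rw [← conj_zpow, ← conj_pow, ← hk, ← pow_mul, mul_comm, pow_mul]
    exact zpow_mem (pow_mem (mem_zpowers _) _) _⟩
  let π := QuotientGroup.mk' (zpowers (y ^ (r - 1)))
  have h7 : Commute (π y) (π x) := by
    have h8 : π (y ^ (r - 1)) = 1 := (QuotientGroup.eq_one_iff _).2 (mem_zpowers _)
    have h9 := congrArg π hr
    rw [show y ^ r = y ^ (r - 1) * y by rw [← pow_succ, Nat.sub_add_cancel h2], map_mul, map_mul, map_mul, h8, one_mul, map_inv,
      mul_assoc, inv_mul_eq_iff_eq_mul] at h9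
    exact h9
  have h8 : commutator G ≤ zpowers (y ^ (r - 1)) := by
    rw [_root_.commutator_def, commutator_le]
    intro g _ h _
    obtain ⟨a, b, rfl⟩ := h6 g
    obtain ⟨c, d, rfl⟩ := h6 h
    rw [← QuotientGroup.eq_one_iff]
    change π _ = 1
    rw [map_commutatorElement, commutatorElement_eq_one_iff_commute]
    simp only [map_mul, map_zpow]
    exact ((Commute.zpow_zpow_self _ _ _).mul_right (h7.zpow_zpow _ _)).mul_left
      ((h7.symm.zpow_zpow _ _).mul_right (Commute.zpow_zpow_self _ _ _))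
  exact mem_zpowers_pow_iff.1 (h8 (hy ▸ mem_zpowers y))

/-- The metacyclic relators. -/
abbrev relsZ (n m r : ℕ) : Set (FreeGroup (Fin 2)) :=
  {FreeGroup.of (0 : Fin 2) ^ n, FreeGroup.of (1 : Fin 2) ^ m,
    (FreeGroup.of (0 : Fin 2))⁻¹ * FreeGroup.of 1 * FreeGroup.of 0 *
      (FreeGroup.of (1 : Fin 2) ^ r)⁻¹}

theorem card_le_of_metacyclic {x y : G} {n m r : ℕ} (hn : 0 < n) (hm : 0 < m) (hx : x ^ n = 1)
    (hy : y ^ m = 1) (h : x⁻¹ * y * x = y ^ r) (ht : closure {x, y} = ⊤) :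
    Finite G ∧ Nat.card G ≤ n * m := by
  have fx := isOfFinOrder_iff_pow_eq_one.2 ⟨n, hn, hx⟩
  have fy := isOfFinOrder_iff_pow_eq_one.2 ⟨m, hm, hy⟩
  have := fy.finite_zpowers.to_subtype
  have : (zpowers y).Normal := by
    rw [← normalizer_eq_top_iff, eq_top_iff, ← ht, closure_le]
    rintro _ (rfl | rfl)
    · rw [SetLike.mem_coe, ← inv_mem_iff]
      apply mem_normalizer_fintype
      rintro _ ⟨i, rfl⟩
      rw [← conj_zpow, inv_inv, h]
      exact zpow_mem (pow_mem (mem_zpowers _) _) _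
    · exact le_normalizer (mem_zpowers _)
  have h1 : (Set.univ : Set G) = (zpowers x : Set G) * (zpowers y : Set G) := by
    rw [← mul_normal, zpowers_eq_closure, zpowers_eq_closure, ← Subgroup.closure_union, ← Set.insert_eq, ht,
      coe_top]
  refine ⟨Set.finite_univ_iff.1 (h1 ▸ fx.finite_zpowers.mul fy.finite_zpowers), ?_⟩
  rw [← Nat.card_univ, h1]
  refine Set.natCard_mul_le.trans (Nat.mul_le_mul ?_ ?_)
  · exact (Nat.card_zpowers x).trans_le (orderOf_le_of_pow_eq_one hn hx)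
  · exact (Nat.card_zpowers y).trans_le (orderOf_le_of_pow_eq_one hm hy)

theorem nonempty_equiv_relsZ [Finite G] {x y : G} {r : ℕ} (ht : closure {x, y} = ⊤)
    (h : x⁻¹ * y * x = y ^ r) (hc : orderOf x * orderOf y = Nat.card G) :
    Nonempty (G ≃* PresentedGroup (relsZ (orderOf x) (orderOf y) r)) := by
  let π : PresentedGroup (relsZ (orderOf x) (orderOf y) r) →* G :=
    PresentedGroup.toGroup (f := ![x, y]) (by
      rintro _ (rfl | rfl | rfl) <;> simp [pow_orderOf_eq_one, h])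
  have hs : Function.Surjective π := by
    rw [← MonoidHom.range_eq_top, eq_top_iff, ← ht, closure_le]
    rintro _ (rfl | rfl)
    exacts [⟨PresentedGroup.of 0, PresentedGroup.toGroup.of _⟩,
      ⟨PresentedGroup.of 1, PresentedGroup.toGroup.of _⟩]
  obtain ⟨_, h1⟩ := card_le_of_metacyclic (G := PresentedGroup (relsZ (orderOf x) (orderOf y) r))
    (x := PresentedGroup.of 0) (y := PresentedGroup.of 1) (r := r) (orderOf_pos x) (orderOf_pos y)
    (PresentedGroup.one_of_mem (Or.inl rfl)) (PresentedGroup.one_of_mem (Or.inr (Or.inl rfl)))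
    (mul_inv_eq_one.1 (PresentedGroup.one_of_mem (Or.inr (Or.inr rfl)))) (by
      rw [← PresentedGroup.closure_range_of]
      congr 1
      ext g
      simp [Fin.exists_fin_two, eq_comm])
  exact ⟨(MulEquiv.ofBijective π (hs.bijective_of_nat_card_le (hc ▸ h1))).symm⟩

end CfsgLib.FrobCompl
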